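import Cfsg.Agent.Lib.Steiner.Counts

/-! Counting in a Steiner system S(3, 6, 22). -/

namespace Cfsg.Lib.Steiner.S22

open Cfsg Finset

variable {α : Type*} [Fintype α] [DecidableEq α] {B : Set (Finset α)}
  (hα : Fintype.card α = 22) (hB : IsSteinerSystem 3 6 B)

include hα hB

theorem card_blocks : (blocks B).card = 77 := by
  have h := through_mul hB ∅ (by simp)
  simp only [Finset.empty_subset, Finset.filter_true, Finset.card_empty, Nat.sub_zero, hα] at h
  norm_num [Nat.choose] at h
  omega

theorem card_through_point (a : α) : ((blocks B).filter fun b => a ∈ b).card = 21 := by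
  have h := through_mul hB {a} (by simp)
  simp only [Finset.singleton_subset_iff, Finset.card_singleton, hα] at h
  norm_num [Nat.choose] at h
  omega

theorem card_through_pair {a a' : α} (hne : a ≠ a') :
    ((blocks B).filter fun b => a ∈ b ∧ a' ∈ b).card = 5 := by
  have h := through_mul hB {a, a'} (by rw [card_pair hne]; norm_num)
  simp only [Finset.insert_subset_iff, Finset.singleton_subset_iff, card_pair hne, hα] at h
  norm_num [Nat.choose] at h
  omega

theorem meet {b : Finset α} (hb : b ∈ B) :
    meetNum B b 0 = 16 ∧ meetNum B b 1 = 0 ∧ meetNum B b 2 = 60 := by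
  have h0 := meet_equation hB hb (show 0 ≤ 3 by norm_num) 77 (by rw [hα]; decide) (by norm_num)
  have h1 := meet_equation hB hb (show 1 ≤ 3 by norm_num) 21 (by rw [hα]; decide) (by norm_num)
  have h2 := meet_equation hB hb (show 2 ≤ 3 by norm_num) 5 (by rw [hα]; decide) (by norm_num)
  norm_num [Finset.sum_range_succ, Nat.choose] at h0 h1 h2
  omega

theorem inter_cases {b c : Finset α} (hb : b ∈ B) (hc : c ∈ B) :
    b = c ∨ (b ∩ c).card = 0 ∨ (b ∩ c).card = 2 := by
  by_cases hne : b = c
  · exact Or.inl hne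
  have hpos := meetNum_pos hc hne
  have hlt : (b ∩ c).card < 3 := not_le.1 fun h => hne (eq_of_le_inter hB hb hc h)
  right
  rcases Nat.lt_succ_iff.1 hlt |>.lt_or_eq with h | h
  · rcases Nat.lt_succ_iff.1 h |>.lt_or_eq with h' | h'
    · exact Or.inl (by omega)
    · rw [h', (meet hα hB hb).2.1] at hpos; omega
  · exact Or.inr h

theorem card_disjoint {b : Finset α} (hb : b ∈ B) :
    ((blocks B).filter fun d => Disjoint b d).card = 16 := by
  rw [← (meet hα hB hb).1, ← ncard_disjoint (by rw [hB.1 b hb]; norm_num), ← Set.ncard_coe_finset]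
  congr 1
  ext d; simp

theorem card_disjoint_through {b : Finset α} (hb : b ∈ B) {a : α} (ha : a ∉ b) :
    ((blocks B).filter fun d => a ∈ d ∧ Disjoint b d).card = 6 := by
  set T := (blocks B).filter fun d => a ∈ d with hT
  have hsum : ∑ d ∈ T, (b ∩ d).card = 30 := by
    have h1 : ∀ d ∈ T, (b ∩ d).card = ∑ x ∈ b, if x ∈ d then 1 else 0 := fun d _ => by
      rw [← card_filter, ← filter_mem_eq_inter]
    rw [sum_congr rfl h1, sum_comm, sum_const_nat (m := 5), hB.1 b hb]
    intro x hx
    rw [← card_filter, hT, filter_filter]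
    exact card_through_pair hα hB fun e => ha (e ▸ hx)
  have hval : ∀ d ∈ T, (b ∩ d).card = if Disjoint b d then 0 else 2 := by
    intro d hd
    simp only [hT, mem_filter, mem_blocks] at hd
    rcases inter_cases hα hB hb hd.1 with rfl | h | h
    · exact absurd hd.2 ha
    · rw [if_pos (by rwa [disjoint_iff_inter_eq_empty, ← card_eq_zero]), h]
    · rw [if_neg (by rw [disjoint_iff_inter_eq_empty, ← card_eq_zero]; omega), h]
  rw [sum_congr rfl hval, sum_ite, sum_const_zero, sum_const, smul_eq_mul, zero_add] at hsum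
  have h21 : T.card = 21 := card_through_point hα hB a
  have := card_filter_add_card_filter_not (s := T) (fun d => Disjoint b d)
  rw [← filter_filter]
  change (T.filter fun d => Disjoint b d).card = 6
  omega

theorem card_disjoint_both {b c : Finset α} (hb : b ∈ B) (hc : c ∈ B) (hne : b ≠ c) :
    ((blocks B).filter fun d => Disjoint b d ∧ Disjoint c d).card =
      if Disjoint b c then 0 else 4 := by
  have hY : ((blocks B).filter fun d => Disjoint b d ∧ Disjoint c d).card = traceNum B (b ∪ c) 0 := by
    rw [traceNum]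
    congr 1
    refine filter_congr fun d _ => ?_
    rw [card_eq_zero, ← disjoint_iff_inter_eq_empty, disjoint_union_right, disjoint_comm (a := d),
      disjoint_comm (a := d)]
  rw [hY]
  have hcard : (b ∪ c).card + (b ∩ c).card = 12 := by rw [card_union_add_card_inter, hB.1 b hb, hB.1 c hc]
  have e0 := trace_equation hB (b ∪ c) (show 0 ≤ 3 by norm_num) (l := 77) (by rw [hα]; decide) (by norm_num)
  have e1 := trace_equation hB (b ∪ c) (show 1 ≤ 3 by norm_num) (l := 21) (by rw [hα]; decide) (by norm_num)
  have e2 := trace_equation hB (b ∪ c) (show 2 ≤ 3 by norm_num) (l := 5) (by rw [hα]; decide) (by norm_num)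
  have e3 := trace_equation hB (b ∪ c) (show 3 ≤ 3 by norm_num) (l := 1) (by rw [hα]; decide) (by norm_num)
  have hbc : (b ∩ c).card = 0 ∨ (b ∩ c).card = 2 := (inter_cases hα hB hb hc).resolve_left hne
  -- the trace of any other block
  have hd : ∀ d ∈ B, d ≠ b → d ≠ c → (d ∩ (b ∪ c)).card = 0 ∨ (d ∩ (b ∪ c)).card = 2 ∨
      ((d ∩ (b ∪ c)).card = 3 ∧ (b ∩ c).card = 2) ∨ (d ∩ (b ∪ c)).card = 4 := by
    intro d hd h1 h2
    have hu : (d ∩ (b ∪ c)).card + (d ∩ (b ∩ c)).card = (d ∩ b).card + (d ∩ c).card := by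
      rw [inter_union_distrib_left, inter_inter_distrib_left, card_union_add_card_inter]
    have l1 : (d ∩ (b ∩ c)).card ≤ (d ∩ b).card :=
      card_le_card (inter_subset_inter_left inter_subset_left)
    have l2 : (d ∩ (b ∩ c)).card ≤ (d ∩ c).card :=
      card_le_card (inter_subset_inter_left inter_subset_right)
    have l3 : (d ∩ (b ∩ c)).card ≤ (b ∩ c).card := card_le_card inter_subset_right
    have := (inter_cases hα hB hd hb).resolve_left h1
    have := (inter_cases hα hB hd hc).resolve_left h2
    omega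
  have h6 : traceNum B (b ∪ c) 6 = 2 := by
    rw [traceNum, show ((blocks B).filter fun d => (d ∩ (b ∪ c)).card = 6) = {b, c} from ?_, card_pair hne]
    ext d
    simp only [mem_filter, mem_blocks, mem_insert, mem_singleton]
    constructor
    · rintro ⟨hd', h⟩
      by_contra h'
      rw [not_or] at h'
      rcases hd d hd' h'.1 h'.2 with h'' | h'' | h'' | h'' <;> omega
    · rintro (rfl | rfl)
      · exact ⟨hb, by rw [inter_eq_left.2 subset_union_left, hB.1 _ hb]⟩
      · exact ⟨hc, by rw [inter_eq_left.2 subset_union_right, hB.1 _ hc]⟩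
  have hz : ∀ i, i ≠ 0 → i ≠ 2 → i ≠ 4 → i ≠ 6 → (i ≠ 3 ∨ (b ∩ c).card = 0) →
      traceNum B (b ∪ c) i = 0 := by
    intro i i0 i2 i4 i6 i3
    rw [traceNum, card_eq_zero, filter_eq_empty_iff]
    intro d hd' h
    rw [mem_blocks] at hd'
    by_cases h1 : d = b
    · rw [h1, inter_eq_left.2 subset_union_left, hB.1 _ hb] at h; omega
    by_cases h2 : d = c
    · rw [h2, inter_eq_left.2 subset_union_right, hB.1 _ hc] at h; omega
    rcases hd d hd' h1 h2 with h'' | h'' | h'' | h'' <;> omega
  rcases hbc with h0 | h2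
  · have h12 : (b ∪ c).card = 12 := by omega
    rw [h12] at e0 e1 e2
    norm_num [sum_range_succ, Nat.choose, h6, hz 1, hz 3, hz 5, hz 7, hz 8, hz 9, hz 10, hz 11, hz 12, h0]
      at e0 e1 e2
    rw [if_pos (by rwa [disjoint_iff_inter_eq_empty, ← card_eq_zero])]
    omega
  · have h10 : (b ∪ c).card = 10 := by omega
    rw [h10] at e0 e1 e2 e3
    norm_num [sum_range_succ, Nat.choose, h6, hz 1, hz 5, hz 7, hz 8, hz 9, hz 10] at e0 e1 e2 e3
    rw [if_neg (by rw [disjoint_iff_inter_eq_empty, ← card_eq_zero]; omega)]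
    omega

omit hα hB in
theorem card_filter_subtype [Fintype B] (P : Finset α → Prop) [DecidablePred P] :
    (univ.filter fun b : B => P b.1).card = ((blocks B).filter P).card := by
  refine card_bij (fun b _ => b.1) ?_ ?_ ?_
  · intro b hb; simp only [mem_filter, mem_univ, true_and] at hb; simp [b.2, hb]
  · intro b _ c _ h; exact Subtype.ext h
  · intro d hd; simp only [mem_filter, mem_blocks] at hd; exact ⟨⟨d, hd.1⟩, by simp [hd.2], rfl⟩

end Cfsg.Lib.Steiner.S22
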