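import Mathlib

/-! The hyperoval model of the plane of order four: six points and fifteen pairings of them. -/

namespace Cfsg.Lib.Steiner.PlaneFour

/-- The fifteen fixed point free involutions of six points. -/
def syn : Fin 15 → Fin 6 → Fin 6 :=
  ![![1, 0, 3, 2, 5, 4], ![1, 0, 4, 5, 2, 3], ![1, 0, 5, 4, 3, 2], ![2, 3, 0, 1, 5, 4],
    ![2, 4, 0, 5, 1, 3], ![2, 5, 0, 4, 3, 1], ![3, 2, 1, 0, 5, 4], ![3, 4, 5, 0, 1, 2],
    ![3, 5, 4, 0, 2, 1], ![4, 2, 1, 5, 0, 3], ![4, 3, 5, 1, 0, 2], ![4, 5, 3, 2, 0, 1],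
    ![5, 2, 1, 4, 3, 0], ![5, 3, 4, 1, 2, 0], ![5, 4, 3, 2, 1, 0]]

/-- The six totals: five pairwise disjoint pairings. -/
def tot : Fin 6 → Finset (Fin 15) :=
  ![{0, 4, 8, 10, 12}, {0, 5, 7, 9, 13}, {1, 3, 7, 11, 12}, {1, 5, 6, 10, 14}, {2, 3, 8, 9, 14},
    {2, 4, 6, 11, 13}]

def hpt (a : Fin 6) : Fin 21 := ⟨a, by omega⟩

def spt (j : Fin 15) : Fin 21 := ⟨j + 6, by omega⟩

def secant (a b : Fin 6) : Finset (Fin 21) :=
  {hpt a, hpt b} ∪ (Finset.univ.filter fun j => syn j a = b).image spt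

def exterior (i : Fin 6) : Finset (Fin 21) := (tot i).image spt

def modelLines : Finset (Finset (Fin 21)) :=
  ((Finset.univ : Finset (Fin 6 × Fin 6)).filter fun p => p.1 < p.2).image (fun p => secant p.1 p.2) ∪
    Finset.univ.image exterior

theorem modelLines_card : modelLines.card = 21 := by decide +kernel

theorem secant_card : ∀ a b : Fin 6, a ≠ b → (secant a b).card = 5 := by decide +kernel

theorem exterior_card : ∀ i : Fin 6, (exterior i).card = 5 := by decide +kernel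

theorem syn_involutive : ∀ j a, syn j (syn j a) = a ∧ syn j a ≠ a := by decide +kernel

theorem syn_injective : ∀ i j : Fin 15, (∀ a, syn i a = syn j a) → i = j := by decide +kernel

/-- A pairing is determined by two of its three pairs. -/
theorem two_pairs : ∀ j : Fin 15, ∃ b c : Fin 6, syn j b = c ∧ b ≠ 0 ∧ c ≠ 0 ∧ syn j 0 ≠ b ∧
    syn j 0 ≠ c := by decide +kernel

def Apart (i j : Fin 15) : Prop := ∀ a, syn i a ≠ syn j a

instance (i j : Fin 15) : Decidable (Apart i j) := inferInstanceAs (Decidable (∀ _, _))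

theorem tot_spec : ∀ i : Fin 6, ∃ p ∈ tot i, ∃ q ∈ tot i, Apart p q ∧
    ∀ k : Fin 15, Apart k p → Apart k q → ∀ m : Fin 15, Apart m p → Apart m q → Apart k m →
      k ∈ tot i := by decide +kernel

theorem hpt_injective : Function.Injective hpt := fun a b h => Fin.ext (by simpa [hpt] using h)

theorem spt_injective : Function.Injective spt := fun a b h => Fin.ext (by simpa [spt] using h)

/-- Glue maps on the two kinds of points. -/
def glue {α : Type*} (f : Fin 6 → α) (g : Fin 15 → α) (x : Fin 21) : α :=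
  if h : x.val < 6 then f ⟨x, h⟩ else g ⟨x.val - 6, by omega⟩

theorem glue_hpt {α : Type*} (f : Fin 6 → α) (g : Fin 15 → α) (a : Fin 6) : glue f g (hpt a) = f a := by
  simp [glue, hpt]

theorem glue_spt {α : Type*} (f : Fin 6 → α) (g : Fin 15 → α) (j : Fin 15) : glue f g (spt j) = g j := by
  simp [glue, spt]

theorem glue_cases (x : Fin 21) : (∃ a, x = hpt a) ∨ ∃ j, x = spt j := by
  by_cases h : x.val < 6
  · exact Or.inl ⟨⟨x, h⟩, rfl⟩
  · exact Or.inr ⟨⟨x.val - 6, by omega⟩, Fin.ext (by simp [spt]; omega)⟩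

end Cfsg.Lib.Steiner.PlaneFour
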