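import Cfsg.Agent.Lib.Steiner.Basic
import Cfsg.Agent.Lib.Steiner.PlaneFourModel

/-! The projective plane of order four as an S(2,5,21): arcs, hyperovals and coordinates. -/

namespace Cfsg.Lib.Steiner.PlaneFour

open Cfsg Finset

variable {α : Type*} [Fintype α] [DecidableEq α] {L : Set (Finset α)}

/-- A set of `n` points meeting no block in more than two points. -/
def IsArc (L : Set (Finset α)) (n : ℕ) (S : Finset α) : Prop :=
  S.card = n ∧ ∀ l ∈ L, (l ∩ S).card ≤ 2

variable (hα : Fintype.card α = 21) (hL : IsSteinerSystem 2 5 L)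

include hL in
theorem eq_of_two {l m : Finset α} (hl : l ∈ L) (hm : m ∈ L) {a b : α} (hab : a ≠ b) (h1 : a ∈ l)
    (h2 : b ∈ l) (h3 : a ∈ m) (h4 : b ∈ m) : l = m :=
  eq_of_le_inter hL hl hm (by
    have : ({a, b} : Finset α) ⊆ l ∩ m := by simp [insert_subset_iff, h1, h2, h3, h4]
    simpa [card_pair hab] using card_le_card this)

include hL in
theorem exists_line {a b : α} (hab : a ≠ b) : ∃ l ∈ L, a ∈ l ∧ b ∈ l := by
  obtain ⟨l, ⟨hl, hs⟩, -⟩ := hL.2 {a, b} (card_pair hab)
  exact ⟨l, hl, hs (by simp), hs (by simp)⟩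

include hα hL in
theorem card_through (a : α) : ((blocks L).filter fun b => a ∈ b).card = 5 := by
  have h := through_mul hL {a} (by simp)
  simp only [singleton_subset_iff, card_singleton, hα] at h
  norm_num [Nat.choose] at h
  omega

include hα hL in
theorem card_lines : (blocks L).card = 21 := by
  have h := through_mul hL ∅ (by simp)
  simp only [empty_subset, filter_true, card_empty, Nat.sub_zero, hα] at h
  norm_num [Nat.choose] at h
  omega

include hα hL in
theorem lines_meet {l m : Finset α} (hl : l ∈ L) (hm : m ∈ L) : ∃ x, x ∈ l ∧ x ∈ m := by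
  by_contra hne
  push Not at hne
  obtain ⟨a, ha⟩ : l.Nonempty := card_pos.1 (by rw [hL.1 l hl]; norm_num)
  have key : ∀ x ∈ m, ∃ k ∈ L, a ∈ k ∧ x ∈ k := fun x hx =>
    exists_line hL (fun e => hne a ha (e ▸ hx))
  choose f hf using key
  have hinj : (m.attach.image fun x => f x.1 x.2).card = m.card := by
    rw [card_image_of_injective, card_attach]
    intro x y hxy
    apply Subtype.ext
    by_contra hne'
    have hx := hf x.1 x.2
    have hy := hf y.1 y.2
    simp only at hxy
    rw [← hxy] at hy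
    have := eq_of_two hL hx.1 hm hne' hx.2.2 hy.2.2 x.2 y.2
    exact hne a ha (this ▸ hx.2.1)
  have heq : (m.attach.image fun x => f x.1 x.2) = (blocks L).filter fun b => a ∈ b := by
    apply eq_of_subset_of_card_le
    · intro k hk
      obtain ⟨x, -, rfl⟩ := mem_image.1 hk
      exact mem_filter.2 ⟨mem_blocks.2 (hf x.1 x.2).1, (hf x.1 x.2).2.1⟩
    · rw [hinj, card_through hα hL, hL.1 m hm]
  have : l ∈ m.attach.image fun x => f x.1 x.2 := heq ▸ mem_filter.2 ⟨mem_blocks.2 hl, ha⟩
  obtain ⟨x, -, hx⟩ := mem_image.1 this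
  exact hne x (hx ▸ (hf x.1 x.2).2.2) x.2

include hα hL in
/-- The lines through a point partition every set avoiding it. -/
theorem sum_through {S : Finset α} {p : α} (hp : p ∉ S) :
    ∑ l ∈ (blocks L).filter (fun b => p ∈ b), (l ∩ S).card = S.card := by
  rw [← card_biUnion]
  · congr 1
    ext x
    simp only [mem_biUnion, mem_filter, mem_blocks, mem_inter]
    refine ⟨fun ⟨_, _, _, h⟩ => h, fun hx => ?_⟩
    obtain ⟨l, hl, h1, h2⟩ := exists_line hL (fun e : p = x => hp (e ▸ hx))
    exact ⟨l, ⟨hl, h1⟩, h2, hx⟩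
  · intro l hl m hm hne
    simp only [coe_filter, mem_blocks, Set.mem_ofPred_eq] at hl hm
    rw [Function.onFun, disjoint_left]
    intro x hx hx'
    rw [mem_inter] at hx hx'
    exact hne (eq_of_two hL hl.1 hm.1 (fun e : p = x => hp (e ▸ hx.2)) hl.2 hx.1 hm.2 hx'.1)

include hα hL in
/-- A block meeting a hyperoval meets it twice. -/
theorem secant_two {H : Finset α} (hH : IsArc L 6 H) {l : Finset α} (hl : l ∈ L) {h : α} (h1 : h ∈ l)
    (h2 : h ∈ H) : (l ∩ H).card = 2 := by
  have hsum := sum_through hα hL (S := H.erase h) (p := h) (by simp)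
  rw [card_erase_of_mem h2, hH.1] at hsum
  have hle : ∀ m ∈ (blocks L).filter (fun b => h ∈ b), (m ∩ H.erase h).card ≤ 1 := by
    intro m hm
    rw [mem_filter, mem_blocks] at hm
    rw [inter_erase, card_erase_of_mem (mem_inter.2 ⟨hm.2, h2⟩)]
    have := hH.2 m hm.1
    omega
  have hall : ∀ m ∈ (blocks L).filter (fun b => h ∈ b), (m ∩ H.erase h).card = 1 :=
    (sum_eq_sum_iff_of_le hle).1 (by rw [hsum, sum_const, card_through hα hL, smul_eq_mul, mul_one])
  have := hall l (mem_filter.2 ⟨mem_blocks.2 hl, h1⟩)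
  rw [inter_erase, card_erase_of_mem (mem_inter.2 ⟨h1, h2⟩)] at this
  omega

/-- The other hyperoval point on the line joining an outside point to a point of a labelled hyperoval. -/
def Partner (L : Set (Finset α)) (e : Fin 6 → α) (p : α) (a b : Fin 6) : Prop :=
  a ≠ b ∧ ∃ l ∈ L, p ∈ l ∧ e a ∈ l ∧ e b ∈ l

section Labelled

variable {e : Fin 6 → α} (he : Function.Injective e) (hH : IsArc L 6 (univ.image e))

include hL he hH in
theorem three_on_line {l : Finset α} (hl : l ∈ L) {a b c : Fin 6} (hab : a ≠ b) (h1 : e a ∈ l)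
    (h2 : e b ∈ l) (h3 : e c ∈ l) : c = a ∨ c = b := by
  by_contra hne
  push Not at hne
  have hc : ({a, b, c} : Finset (Fin 6)).card = 3 := card_eq_three.2 ⟨a, b, c, hab, hne.1.symm, hne.2.symm, rfl⟩
  have hsub : ({a, b, c} : Finset (Fin 6)).image e ⊆ l ∩ univ.image e := by
    intro x hx
    simp only [image_insert, image_singleton, mem_insert, mem_singleton] at hx
    rcases hx with rfl | rfl | rfl <;> exact mem_inter.2 ⟨by assumption, mem_image_of_mem _ (mem_univ _)⟩
  have h := (card_le_card hsub).trans (hH.2 l hl)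
  rw [card_image_of_injective _ he, hc] at h
  omega

include hL he hH in
theorem Partner.unique {p : α} (hp : p ∉ univ.image e) {a b b' : Fin 6} (h : Partner L e p a b)
    (h' : Partner L e p a b') : b = b' := by
  obtain ⟨hab, l, hl, l1, l2, l3⟩ := h
  obtain ⟨hab', m, hm, m1, m2, m3⟩ := h'
  have hpa : p ≠ e a := fun h => hp (h ▸ mem_image_of_mem _ (mem_univ _))
  obtain rfl := eq_of_two hL hl hm hpa l1 l2 m1 m2
  rcases three_on_line hL he hH hl hab l2 l3 m3 with r | r
  · exact absurd r hab'.symm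
  · exact r.symm

theorem Partner.symm {p : α} {a b : Fin 6} (h : Partner L e p a b) : Partner L e p b a := by
  obtain ⟨hab, l, hl, l1, l2, l3⟩ := h
  exact ⟨hab.symm, l, hl, l1, l3, l2⟩

include hα hL hH in
theorem Partner.exists {p : α} (hp : p ∉ univ.image e) (a : Fin 6) : ∃ b, Partner L e p a b := by
  obtain ⟨l, hl, l1, l2⟩ := exists_line hL (fun h : p = e a => hp (h ▸ mem_image_of_mem _ (mem_univ _)))
  have h2 := secant_two hα hL hH hl l2 (mem_image_of_mem _ (mem_univ a))
  obtain ⟨x, hx, hxa⟩ : ∃ x ∈ l ∩ univ.image e, x ≠ e a := exists_mem_ne (by omega) _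
  obtain ⟨hxl, hxH⟩ := mem_inter.1 hx
  obtain ⟨b, -, rfl⟩ := mem_image.1 hxH
  exact ⟨b, fun h => hxa (h ▸ rfl), l, hl, l1, l2, hxl⟩

include hα hL hH in
theorem eq_of_partners {p q : α} (hp : p ∉ univ.image e) (hq : q ∉ univ.image e)
    (h : ∀ a b, Partner L e p a b → Partner L e q a b) (he' : Function.Injective e) : p = q := by
  obtain ⟨b, hb⟩ := Partner.exists hα hL hH hp 0
  obtain ⟨c, hc0, hcb⟩ := (by decide : ∀ b : Fin 6, ∃ c : Fin 6, c ≠ 0 ∧ c ≠ b) b
  obtain ⟨d, hd⟩ := Partner.exists hα hL hH hp c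
  obtain ⟨hb0, l, hl, l1, l2, l3⟩ := hb
  obtain ⟨hcd, m, hm, m1, m2, m3⟩ := hd
  obtain ⟨h0b, l', hl', q1, q2, q3⟩ := h 0 b ⟨hb0, l, hl, l1, l2, l3⟩
  obtain ⟨-, m', hm', r1, r2, r3⟩ := h c d ⟨hcd, m, hm, m1, m2, m3⟩
  obtain rfl := eq_of_two hL hl hl' (he'.ne h0b) l2 l3 q2 q3
  obtain rfl := eq_of_two hL hm hm' (he'.ne hcd) m2 m3 r2 r3
  by_contra hne
  obtain rfl := eq_of_two hL hl hm hne l1 q1 m1 r1
  rcases three_on_line hL he' hH hl h0b l2 l3 m2 with r | r
  · exact hc0 r
  · exact hcb r

include hα hL he hH in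
theorem exists_point (j : Fin 15) : ∃ p, p ∉ univ.image e ∧ ∀ a, Partner L e p a (syn j a) := by
  obtain ⟨b, c, hbc, hb0, hc0, h0b, h0c⟩ := two_pairs j
  set a := syn j 0 with ha
  have h0a : (0 : Fin 6) ≠ a := (syn_involutive j 0).2.symm
  have hbc' : b ≠ c := hbc ▸ (syn_involutive j b).2.symm
  obtain ⟨l, hl, l1, l2⟩ := exists_line hL (he.ne h0a)
  obtain ⟨m, hm, m1, m2⟩ := exists_line hL (he.ne hbc')
  obtain ⟨p, pl, pm⟩ := lines_meet hα hL hl hm
  have hp : p ∉ univ.image e := by
    intro hp
    obtain ⟨d, -, rfl⟩ := mem_image.1 hp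
    rcases three_on_line hL he hH hl h0a l1 l2 pl with rfl | rfl <;>
      rcases three_on_line hL he hH hm hbc' m1 m2 pm with r | r
    · exact hb0 r.symm
    · exact hc0 r.symm
    · exact h0b r
    · exact h0c r
  have P0 : Partner L e p 0 a := ⟨h0a, l, hl, pl, l1, l2⟩
  have Pb : Partner L e p b c := ⟨hbc', m, hm, pm, m1, m2⟩
  refine ⟨p, hp, fun x => ?_⟩
  have four : x = 0 ∨ x = a ∨ x = b ∨ x = c ∨ (x ≠ 0 ∧ x ≠ a ∧ x ≠ b ∧ x ≠ c) := by tauto
  rcases four with rfl | rfl | rfl | rfl | ⟨x0, xa, xb, xc⟩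
  · exact P0
  · rw [ha, (syn_involutive j 0).1]; exact P0.symm
  · exact hbc ▸ Pb
  · rw [← hbc, (syn_involutive j b).1, hbc]; exact Pb.symm
  · obtain ⟨y, hy⟩ := Partner.exists hα hL hH hp x
    have y0 : y ≠ 0 := fun h => xa (Partner.unique hL he hH hp (h ▸ hy.symm) P0)
    have ya : y ≠ a := fun h => x0 (Partner.unique hL he hH hp (h ▸ hy.symm) P0.symm)
    have yb : y ≠ b := fun h => xc (Partner.unique hL he hH hp (h ▸ hy.symm) Pb)
    have yc : y ≠ c := fun h => xb (Partner.unique hL he hH hp (h ▸ hy.symm) Pb.symm)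
    convert hy using 2
    by_contra hne
    have hxy := hy.1
    have hs := syn_involutive j
    have h6 : ({0, a, b, c, x, y} : Finset (Fin 6)) = univ := by
      apply eq_univ_of_card
      simp [card_insert_of_notMem, h0a, hb0.symm, hc0.symm, x0.symm, y0.symm, h0b, h0c, xa.symm, ya.symm,
        hbc', xb.symm, yb.symm, xc.symm, yc.symm, hxy]
    have hm6 : syn j x ∈ ({0, a, b, c, x, y} : Finset (Fin 6)) := h6 ▸ mem_univ _
    simp only [mem_insert, mem_singleton] at hm6
    rcases hm6 with r | r | r | r | r | r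
    · exact xa (by rw [ha, ← r, (hs x).1])
    · exact x0 (by rw [← (hs x).1, r, ha, (hs 0).1])
    · exact xc (by rw [← hbc, ← r, (hs x).1])
    · exact xb (by rw [← (hs x).1, r, ← hbc, (hs b).1])
    · exact (hs x).2 r
    · exact hne r

include hα hL he hH in
/-- Coordinates attached to a labelled hyperoval. -/
theorem exists_coord : ∃ Φ : Fin 21 ≃ α, (∀ a, Φ (hpt a) = e a) ∧
    (fun b => b.image Φ) '' (modelLines : Set (Finset (Fin 21))) = L := by
  choose g hg1 hg2 using exists_point hα hL he hH
  have ginj : Function.Injective g := fun i j hij => syn_injective i j fun a =>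
    Partner.unique hL he hH (hg1 i) (hg2 i a) (by rw [hij]; exact hg2 j a)
  have finj : Function.Injective (glue e g) := by
    intro x y hxy
    rcases glue_cases x with ⟨a, rfl⟩ | ⟨i, rfl⟩ <;> rcases glue_cases y with ⟨b, rfl⟩ | ⟨j, rfl⟩ <;>
      simp only [glue_hpt, glue_spt] at hxy
    · rw [he hxy]
    · exact absurd (hxy ▸ mem_image_of_mem e (mem_univ a)) (hg1 j)
    · exact absurd (hxy.symm ▸ mem_image_of_mem e (mem_univ b)) (hg1 i)
    · rw [ginj hxy]
  have hbij : Function.Bijective (glue e g) :=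
    (Fintype.bijective_iff_injective_and_card _).2 ⟨finj, by simp [hα]⟩
  refine ⟨Equiv.ofBijective _ hbij, fun a => glue_hpt e g a, ?_⟩
  have hsub : modelLines.image (fun b => b.image (glue e g)) ⊆ blocks L := by
    intro m hm
    obtain ⟨b, hb, rfl⟩ := mem_image.1 hm
    rw [modelLines, mem_union] at hb
    rw [mem_blocks]
    rcases hb with hb | hb
    · obtain ⟨⟨x, y⟩, hxy, rfl⟩ := mem_image.1 hb
      have hne : x ≠ y := ne_of_lt (mem_filter.1 hxy).2
      obtain ⟨l, hl, l1, l2⟩ := exists_line hL (he.ne hne)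
      suffices (secant x y).image (glue e g) = l by simp only; rw [this]; exact hl
      apply eq_of_subset_of_card_le
      · intro z hz
        obtain ⟨w, hw, rfl⟩ := mem_image.1 hz
        simp only [secant, mem_union, mem_insert, mem_singleton, mem_image, mem_filter, mem_univ,
          true_and] at hw
        rcases hw with (rfl | rfl) | ⟨j, hj, rfl⟩
        · rwa [glue_hpt]
        · rwa [glue_hpt]
        · rw [glue_spt]
          obtain ⟨-, k, hk, k1, k2, k3⟩ := hg2 j x
          rw [hj] at k3
          exact eq_of_two hL hk hl (he.ne hne) k2 k3 l1 l2 ▸ k1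
      · rw [card_image_of_injective _ finj, secant_card x y hne, hL.1 l hl]
    · obtain ⟨i, -, rfl⟩ := mem_image.1 hb
      obtain ⟨p, hp, q, hq, hpq, hclique⟩ := tot_spec i
      have hne : g p ≠ g q := fun h => hpq 0 (by rw [ginj h])
      obtain ⟨l, hl, l1, l2⟩ := exists_line hL hne
      have hext : ∀ a, e a ∉ l := by
        intro a ha
        have hpa : g p ≠ e a := fun h => hg1 p (h ▸ mem_image_of_mem _ (mem_univ _))
        obtain ⟨b, hb'⟩ := Partner.exists hα hL hH (hg1 p) a
        obtain ⟨hab, k, hk, k1, k2, k3⟩ := hb'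
        obtain rfl := eq_of_two hL hk hl hpa k1 k2 l1 ha
        exact hpq a ((Partner.unique hL he hH (hg1 p) (hg2 p a) ⟨hab, _, hk, k1, k2, k3⟩).trans
          (Partner.unique hL he hH (hg1 q) (hg2 q a) ⟨hab, _, hk, l2, k2, k3⟩).symm)
      have hapart : ∀ u v, u ≠ v → g u ∈ l → g v ∈ l → Apart u v := by
        intro u v huv hu hv a hsyn
        obtain ⟨hab, k, hk, k1, k2, k3⟩ := hg2 u a
        obtain ⟨-, k', hk', r1, r2, r3⟩ := hg2 v a
        rw [← hsyn] at r3
        obtain rfl := eq_of_two hL hk hk' (he.ne hab) k2 k3 r2 r3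
        obtain rfl := eq_of_two hL hk hl (ginj.ne huv) k1 r1 hu hv
        exact hext a k2
      suffices (exterior i).image (glue e g) = l by rw [this]; exact hl
      symm
      apply eq_of_subset_of_card_le
      · intro z hz
        obtain ⟨w, rfl⟩ := hbij.2 z
        rcases glue_cases w with ⟨a, rfl⟩ | ⟨k, rfl⟩
        · rw [glue_hpt] at hz; exact absurd hz (hext a)
        · rw [glue_spt] at hz ⊢
          refine mem_image.2 ⟨spt k, mem_image_of_mem _ ?_, glue_spt e g k⟩
          by_cases hkp : k = p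
          · exact hkp ▸ hp
          by_cases hkq : k = q
          · exact hkq ▸ hq
          have hpq' : p ≠ q := fun h => hne (by rw [h])
          obtain ⟨z', hz', hz''⟩ : ∃ z' ∈ l, z' ∉ ({g p, g q, g k} : Finset α) :=
            exists_mem_notMem_of_card_lt_card (lt_of_le_of_lt card_le_three (by rw [hL.1 l hl]; norm_num))
          obtain ⟨w', rfl⟩ := hbij.2 z'
          rcases glue_cases w' with ⟨a, rfl⟩ | ⟨m, rfl⟩
          · rw [glue_hpt] at hz'; exact absurd hz' (hext a)
          · rw [glue_spt] at hz' hz''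
            simp only [mem_insert, mem_singleton, not_or] at hz''
            exact hclique k (hapart _ _ hkp hz l1) (hapart _ _ hkq hz l2) m
              (hapart _ _ (fun h => hz''.1 (by rw [h])) hz' l1)
              (hapart _ _ (fun h => hz''.2.1 (by rw [h])) hz' l2)
              (hapart _ _ (fun h => hz''.2.2 (by rw [h])) hz hz')
      · rw [card_image_of_injective _ finj, exterior_card, hL.1 l hl]
  have heq := eq_of_subset_of_card_le hsub (by
    rw [card_lines hα hL, card_image_of_injective _ (image_injective finj), modelLines_card])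
  ext b
  have := Finset.ext_iff.1 heq b
  simp only [mem_image, mem_blocks] at this
  simpa [Equiv.ofBijective_apply] using this

end Labelled

include hα hL in
/-- The points that extend an arc are those off all its secants. -/
theorem extension_iff {k : ℕ} {S : Finset α} (hS : IsArc L k S) {x : α} (hx : x ∉ S) :
    IsArc L (k + 1) (insert x S) ↔
      x ∉ ((blocks L).filter fun l => (l ∩ S).card = 2).biUnion id := by
  simp only [mem_biUnion, mem_filter, mem_blocks, id, not_exists, not_and]
  constructor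
  · intro h l hl hxl
    have := h.2 l hl.1
    rw [inter_insert_of_mem hxl, card_insert_of_notMem (fun h => hx (mem_inter.1 h).2)] at this
    omega
  · intro h
    refine ⟨by rw [card_insert_of_notMem hx, hS.1], fun l hl => ?_⟩
    have h2 := hS.2 l hl
    by_cases hxl : x ∈ l
    · rw [inter_insert_of_mem hxl, card_insert_of_notMem (fun h => hx (mem_inter.1 h).2)]
      have : (l ∩ S).card ≠ 2 := fun h' => h l ⟨hl, h'⟩ hxl
      omega
    · rw [inter_insert_of_notMem hxl]; exact h2

include hα hL in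
/-- A four-arc lies in exactly one hyperoval. -/
theorem existsUnique_hyperoval {S : Finset α} (hS : IsArc L 4 S) :
    ∃! H : Finset α, IsArc L 6 H ∧ S ⊆ H := by
  classical
  set U : Finset α := univ.filter fun x => x ∉ S ∧ ∀ l ∈ L, x ∈ l → (l ∩ S).card ≤ 1 with hU
  have hsub : ∀ H, IsArc L 6 H → S ⊆ H → H ⊆ S ∪ U := by
    intro H hH hSH x hx
    by_cases hxS : x ∈ S
    · exact mem_union_left _ hxS
    · refine mem_union_right _ (mem_filter.2 ⟨mem_univ _, hxS, fun l hl hxl => ?_⟩)
      have hins : insert x (l ∩ S) ⊆ l ∩ H :=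
        insert_subset (mem_inter.2 ⟨hxl, hx⟩) (inter_subset_inter_left hSH)
      have h1 := (card_le_card hins).trans (hH.2 l hl)
      rw [card_insert_of_notMem (fun h => hxS (mem_inter.1 h).2)] at h1
      omega
  have tangent : ∀ s ∈ S, ∀ l ∈ L, s ∈ l → (l ∩ S).card = 1 → (l ∩ U).card = 1 := by
    intro s hs l hl hsl h1
    have honly : ∀ y ∈ l, y ∈ S → y = s := fun y hy hyS =>
      card_le_one.1 h1.le y (mem_inter.2 ⟨hy, hyS⟩) s (mem_inter.2 ⟨hsl, hs⟩)
    set T := (S.erase s).powersetCard 2
    have hT : ∀ P ∈ T, ∃ m, m ∈ L ∧ P ⊆ m := fun P hP => (hL.2 P (mem_powersetCard.1 hP).2).exists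
    choose mm hmm using hT
    have hmeet : ∀ P (hP : P ∈ T), ∃ y, y ∈ l ∧ y ∈ mm P hP := fun P hP =>
      lines_meet hα hL hl (hmm P hP).1
    choose pt hpt' using hmeet
    have key : l \ U = insert s (T.attach.image fun P => pt P.1 P.2) := by
      ext y
      simp only [mem_sdiff, mem_insert, mem_image, mem_attach, true_and, Subtype.exists, hU, mem_filter,
        mem_univ, not_and, not_forall]
      constructor
      · rintro ⟨hy, hyU⟩
        by_cases hys : y = s
        · exact Or.inl hys
        refine Or.inr ?_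
        obtain ⟨m, hm, hym, hc⟩ := hyU (fun h => hys (honly y hy h))
        have hc2 : (m ∩ S).card = 2 := le_antisymm (hS.2 m hm) (by omega)
        have hsm : s ∉ m := fun h => by
          have := eq_of_two hL hl hm (Ne.symm hys) hsl hy h hym
          subst this; omega
        have hP : m ∩ S ∈ T := mem_powersetCard.2 ⟨fun z hz => mem_erase.2
          ⟨fun e => hsm (e ▸ (mem_inter.1 hz).1), (mem_inter.1 hz).2⟩, hc2⟩
        refine ⟨m ∩ S, hP, ?_⟩
        obtain ⟨z, z', hzz, he2⟩ := card_eq_two.1 hc2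
        have hz1 : z ∈ m ∩ S := he2 ▸ by simp
        have hz2 : z' ∈ m ∩ S := he2 ▸ by simp
        have := eq_of_two hL (hmm _ hP).1 hm hzz ((hmm _ hP).2 hz1) ((hmm _ hP).2 hz2)
          (mem_inter.1 hz1).1 (mem_inter.1 hz2).1
        by_contra hne'
        have hh : pt (m ∩ S) hP ∈ m := by
          have h2 := (hpt' _ hP).2
          rwa [this] at h2
        have h' := eq_of_two hL hl hm hne' (hpt' _ hP).1 hy hh hym
        exact hsm (h' ▸ hsl)
      · rintro (rfl | ⟨P, hP, rfl⟩)
        · exact ⟨hsl, fun h => absurd hs h⟩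
        · refine ⟨(hpt' P hP).1, fun _ => ⟨mm P hP, (hmm P hP).1, (hpt' P hP).2, ?_⟩⟩
          have hP' := mem_powersetCard.1 hP
          have : P ⊆ mm P hP ∩ S := subset_inter (hmm P hP).2 (hP'.1.trans (erase_subset _ _))
          have := card_le_card this
          rw [hP'.2] at this; omega
    have inner : ∀ P (hP : P ∈ T), pt P hP ∉ S := by
      intro P hP hyS
      have hy := honly _ (hpt' P hP).1 hyS
      have hP' := mem_powersetCard.1 hP
      have hsub' : insert s P ⊆ mm P hP ∩ S := subset_inter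
        (insert_subset (hy ▸ (hpt' P hP).2) (hmm P hP).2)
        (insert_subset hs (hP'.1.trans (erase_subset _ _)))
      have := (card_le_card hsub').trans (hS.2 _ (hmm P hP).1)
      rw [card_insert_of_notMem (fun h => (mem_erase.1 (hP'.1 h)).1 rfl), hP'.2] at this
      omega
    have hinj : Function.Injective fun P : {P // P ∈ T} => pt P.1 P.2 := by
      rintro ⟨P, hP⟩ ⟨Q, hQ⟩ h
      simp only [Subtype.mk.injEq]
      by_contra hne'
      have hP' := mem_powersetCard.1 hP
      have hQ' := mem_powersetCard.1 hQ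
      obtain ⟨z, hzP, hzQ⟩ : ∃ z, z ∈ P ∧ z ∈ Q := by
        by_contra hd
        push Not at hd
        have := card_le_card (union_subset hP'.1 hQ'.1)
        rw [card_union_of_disjoint (disjoint_left.2 hd), hP'.2, hQ'.2, card_erase_of_mem hs, hS.1] at this
        omega
      simp only at h
      have hne2 : pt P hP ≠ z := fun e => inner P hP (e ▸ (erase_subset _ _ (hP'.1 hzP)))
      have hlines := eq_of_two hL (hmm P hP).1 (hmm Q hQ).1 hne2 (hpt' P hP).2 ((hmm P hP).2 hzP)
        (h ▸ (hpt' Q hQ).2) ((hmm Q hQ).2 hzQ)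
      have hsub' : P ∪ Q ⊆ mm P hP ∩ S := subset_inter
        (union_subset (hmm P hP).2 (hlines ▸ (hmm Q hQ).2))
        ((union_subset hP'.1 hQ'.1).trans (erase_subset _ _))
      have h2 := (card_le_card hsub').trans (hS.2 _ (hmm P hP).1)
      have : P = P ∪ Q := eq_of_subset_of_card_le subset_union_left (by omega)
      exact hne' (eq_of_subset_of_card_le (this ▸ subset_union_right : Q ⊆ P) (by omega)).symm
    have hc : (l \ U).card = 4 := by
      rw [key, card_insert_of_notMem, card_image_of_injective _ hinj, card_attach, card_powersetCard,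
        card_erase_of_mem hs, hS.1]
      · rfl
      · simp only [mem_image, mem_attach, true_and, Subtype.exists, not_exists]
        intro P hP h
        exact inner P hP (h ▸ hs)
    have := card_sdiff_add_card_inter l U
    rw [hc, hL.1 l hl] at this
    omega
  have secantU : ∀ l ∈ L, (l ∩ S).card = 2 → l ∩ U = ∅ := by
    intro l hl h
    ext x
    simp only [hU, mem_inter, mem_filter, mem_univ, true_and, notMem_empty, iff_false, not_and]
    intro hx _ hall
    have := hall l hl hx
    omega
  have hUS : ∀ s ∈ S, s ∉ U := fun s hs h => (mem_filter.1 h).2.1 hs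
  have hUcard : U.card = 2 := by
    obtain ⟨s, hs⟩ : S.Nonempty := card_pos.1 (by rw [hS.1]; norm_num)
    have hsum := sum_through hα hL (S := U) (p := s) (hUS s hs)
    have hsum' := sum_through hα hL (S := S.erase s) (p := s) (by simp)
    have hval : ∀ l ∈ (blocks L).filter (fun b => s ∈ b), (l ∩ U).card + (l ∩ S.erase s).card = 1 := by
      intro l hl
      rw [mem_filter, mem_blocks] at hl
      have hm : s ∈ l ∩ S := mem_inter.2 ⟨hl.2, hs⟩
      rw [inter_erase, card_erase_of_mem hm]
      have h1 : 1 ≤ (l ∩ S).card := card_pos.2 ⟨s, hm⟩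
      have h2 := hS.2 l hl.1
      rcases (show (l ∩ S).card = 1 ∨ (l ∩ S).card = 2 by omega) with h | h
      · rw [tangent s hs l hl.1 hl.2 h, h]
      · rw [secantU l hl.1 h, h]; rfl
    have h5 : ∑ l ∈ (blocks L).filter (fun b => s ∈ b), ((l ∩ U).card + (l ∩ S.erase s).card) = 5 := by
      rw [sum_congr rfl hval, sum_const, card_through hα hL, smul_eq_mul, mul_one]
    rw [sum_add_distrib, hsum, hsum', card_erase_of_mem hs, hS.1] at h5
    omega
  have hcard : (S ∪ U).card = 6 := by
    rw [card_union_of_disjoint (disjoint_left.2 hUS), hS.1, hUcard]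
  have harc : ∀ l ∈ L, (l ∩ (S ∪ U)).card ≤ 2 := by
    intro l hl
    rw [inter_union_distrib_left]
    refine (card_union_le _ _).trans ?_
    have h2 := hS.2 l hl
    rcases Nat.eq_zero_or_pos (l ∩ S).card with h | h
    · rw [h, zero_add]
      exact (card_le_card inter_subset_right).trans hUcard.le
    · obtain ⟨s, hs⟩ := card_pos.1 h
      rcases (show (l ∩ S).card = 1 ∨ (l ∩ S).card = 2 by omega) with h' | h'
      · rw [h', tangent s (mem_inter.1 hs).2 l hl (mem_inter.1 hs).1 h']
      · rw [h', secantU l hl h']; rfl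
  refine ⟨S ∪ U, ⟨⟨hcard, harc⟩, subset_union_left⟩, ?_⟩
  rintro H ⟨hH, hSH⟩
  exact eq_of_subset_of_card_le (hsub H hH hSH) (by rw [hcard, hH.1])

include hα hL in
theorem extension_card {k : ℕ} {S : Finset α} (hS : IsArc L k S) (hk : k = 1 ∨ k = 2 ∨ k = 3) :
    ∃ T : Finset α, (∀ x, x ∈ T ↔ x ∉ S ∧ IsArc L (k + 1) (insert x S)) ∧
      T.card = (if k = 1 then 20 else if k = 2 then 16 else 9) := by
  classical
  set W := ((blocks L).filter fun l => (l ∩ S).card = 2).biUnion id
  refine ⟨univ \ (S ∪ W), fun x => ?_, ?_⟩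
  · simp only [mem_sdiff, mem_univ, mem_union, true_and, not_or]
    exact and_congr_right fun hx => (extension_iff hα hL hS hx).symm
  rw [card_sdiff_of_subset (subset_univ _), card_univ, hα]
  rcases hk with rfl | rfl | rfl
  · have hW : W = ∅ := by
      rw [eq_empty_iff_forall_notMem]
      intro x hx
      obtain ⟨l, hl, -⟩ := mem_biUnion.1 hx
      have := (card_le_card (inter_subset_right : l ∩ S ⊆ S))
      rw [(mem_filter.1 hl).2, hS.1] at this
      omega
    simp [hW, hS.1]
  · obtain ⟨a, b, hab, rfl⟩ := card_eq_two.1 hS.1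
    obtain ⟨l, hl, ha, hb⟩ := exists_line hL hab
    have hW : W = l := by
      have : (blocks L).filter (fun m => (m ∩ {a, b}).card = 2) = {l} := by
        ext m
        simp only [mem_filter, mem_blocks, mem_singleton]
        constructor
        · rintro ⟨hm, hc⟩
          have := eq_of_subset_of_card_le (inter_subset_right : m ∩ {a, b} ⊆ {a, b}) (by rw [hc, card_pair hab])
          have hsub : ({a, b} : Finset α) ⊆ m := this ▸ inter_subset_left
          exact eq_of_two hL hm hl hab (hsub (by simp)) (hsub (by simp)) ha hb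
        · rintro rfl
          refine ⟨hl, ?_⟩
          rw [inter_eq_right.2 (by simp [insert_subset_iff, ha, hb]), card_pair hab]
      simp only [W, this, singleton_biUnion, id]
    rw [hW, union_eq_right.2 (by simp [insert_subset_iff, ha, hb]), hL.1 l hl]
    rfl
  · obtain ⟨a, b, c, hab, hac, hbc, rfl⟩ := card_eq_three.1 hS.1
    obtain ⟨l, hl, la, lb⟩ := exists_line hL hab
    obtain ⟨m, hm, ma, mc⟩ := exists_line hL hac
    obtain ⟨n, hn, nb, nc⟩ := exists_line hL hbc
    have bad : ∀ k ∈ L, a ∈ k → b ∈ k → c ∈ k → False := by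
      intro k hk h1 h2 h3
      have h := hS.2 k hk
      rw [inter_eq_right.2 (by simp [insert_subset_iff, h1, h2, h3]), hS.1] at h
      omega
    have lm : l ∩ m = {a} := by
      refine (eq_of_subset_of_card_le (by simp [la, ma]) ?_).symm
      rw [card_singleton]
      by_contra h
      exact bad l hl la lb ((eq_of_le_inter hL hl hm (by omega)) ▸ mc)
    have lmn : (l ∪ m) ∩ n = {b, c} := by
      ext x
      simp only [mem_inter, mem_union, mem_insert, mem_singleton]
      constructor
      · rintro ⟨hx | hx, hxn⟩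
        · by_contra hne'
          push Not at hne'
          exact bad l hl la lb (eq_of_two hL hl hn hne'.1 hx lb hxn nb ▸ nc)
        · by_contra hne'
          push Not at hne'
          exact bad m hm ma (eq_of_two hL hm hn hne'.2 hx mc hxn nc ▸ nb) mc
      · rintro (rfl | rfl)
        · exact ⟨Or.inl lb, nb⟩
        · exact ⟨Or.inr mc, nc⟩
    have hlines : (blocks L).filter (fun k => (k ∩ {a, b, c}).card = 2) = {l, m, n} := by
      ext k
      simp only [mem_filter, mem_blocks, mem_insert, mem_singleton]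
      constructor
      · rintro ⟨hk, hc2⟩
        obtain ⟨z, hz, hzk⟩ : ∃ z ∈ ({a, b, c} : Finset α), z ∉ k := by
          by_contra h
          push Not at h
          exact bad k hk (h a (by simp)) (h b (by simp)) (h c (by simp))
        have hin : ∀ w ∈ ({a, b, c} : Finset α), w ≠ z → w ∈ k := by
          intro w hw hwz
          by_contra hwk
          have : k ∩ {a, b, c} ⊆ (({a, b, c} : Finset α).erase z).erase w := fun v hv => by
            rw [mem_inter] at hv
            exact mem_erase.2 ⟨fun e => hwk (e ▸ hv.1), mem_erase.2 ⟨fun e => hzk (e ▸ hv.1), hv.2⟩⟩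
          have := card_le_card this
          rw [hc2, card_erase_of_mem (mem_erase.2 ⟨hwz, hw⟩), card_erase_of_mem hz, hS.1] at this
          omega
        simp only [mem_insert, mem_singleton] at hz
        rcases hz with rfl | rfl | rfl
        · exact Or.inr (Or.inr (eq_of_two hL hk hn hbc (hin b (by simp) hab.symm) (hin c (by simp) hac.symm) nb nc))
        · exact Or.inr (Or.inl (eq_of_two hL hk hm hac (hin a (by simp) hab) (hin c (by simp) hbc.symm) ma mc))
        · exact Or.inl (eq_of_two hL hk hl hab (hin a (by simp) hac) (hin b (by simp) hbc) la lb)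
      · rintro (rfl | rfl | rfl) <;> refine ⟨by assumption, le_antisymm (hS.2 _ (by assumption)) ?_⟩
        · refine le_trans ?_ (card_le_card (show ({a, b} : Finset α) ⊆ k ∩ {a, b, c} by
            simp [insert_subset_iff, la, lb]))
          rw [card_pair hab]
        · refine le_trans ?_ (card_le_card (show ({a, c} : Finset α) ⊆ k ∩ {a, b, c} by
            simp [insert_subset_iff, ma, mc]))
          rw [card_pair hac]
        · refine le_trans ?_ (card_le_card (show ({b, c} : Finset α) ⊆ k ∩ {a, b, c} by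
            simp [insert_subset_iff, nb, nc]))
          rw [card_pair hbc]
    have hW : W = l ∪ m ∪ n := by simp [W, hlines, biUnion_insert, union_assoc]
    have hc12 : W.card = 12 := by
      have h1 := card_union_add_card_inter l m
      have h2 := card_union_add_card_inter (l ∪ m) n
      rw [lm, card_singleton, hL.1 l hl, hL.1 m hm] at h1
      rw [lmn, card_pair hbc, hL.1 n hn] at h2
      rw [hW]; omega
    rw [union_eq_right.2 (by simp [hW, insert_subset_iff, la, lb, mc]), hc12]
    rfl

include hα hL in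
theorem exists_hyperoval : ∃ e : Fin 6 → α, Function.Injective e ∧ IsArc L 6 (univ.image e) := by
  obtain ⟨a⟩ : Nonempty α := Fintype.card_pos_iff.1 (by omega)
  have h1 : IsArc L 1 {a} := ⟨card_singleton a, fun l _ => (card_le_card inter_subset_right).trans (by simp)⟩
  have step : ∀ k, (k = 1 ∨ k = 2 ∨ k = 3) → ∀ S, IsArc L k S → ∃ S', IsArc L (k + 1) S' := by
    intro k hk S hS
    obtain ⟨T, hT, hc⟩ := extension_card hα hL hS hk
    obtain ⟨x, hx⟩ : T.Nonempty := card_pos.1 (by rw [hc]; split_ifs <;> norm_num)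
    exact ⟨_, ((hT x).1 hx).2⟩
  obtain ⟨S2, h2⟩ := step 1 (by simp) _ h1
  obtain ⟨S3, h3⟩ := step 2 (by simp) _ h2
  obtain ⟨S4, h4⟩ := step 3 (by simp) _ h3
  obtain ⟨H, ⟨hH, -⟩, -⟩ := existsUnique_hyperoval hα hL h4
  refine ⟨fun i => (H.equivFinOfCardEq hH.1).symm i, fun i j h => by simpa using Subtype.ext h, ?_⟩
  convert hH
  ext x
  simp only [mem_image, mem_univ, true_and]
  exact ⟨fun ⟨i, hi⟩ => hi ▸ Subtype.coe_prop _, fun hx => ⟨H.equivFinOfCardEq hH.1 ⟨x, hx⟩, by simp⟩⟩

include hα hL in
theorem arcs_step {k N : ℕ} (hk : k = 1 ∨ k = 2 ∨ k = 3) (hN : {S | IsArc L k S}.ncard = N) :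
    {S | IsArc L (k + 1) S}.ncard * (k + 1) = N * (if k = 1 then 20 else if k = 2 then 16 else 9) := by
  classical
  have e : ∀ n, {S : Finset α | IsArc L n S}.ncard = (univ.filter (IsArc L n)).card := fun n => by
    rw [← Set.ncard_coe_finset]; simp
  rw [e] at hN ⊢
  rw [← hN]
  refine (card_mul_eq_card_mul (fun (S S' : Finset α) => S ⊆ S') ?_ ?_).symm
  · intro S hS
    rw [mem_filter] at hS
    obtain ⟨T, hT, hc⟩ := extension_card hα hL hS.2 hk
    rw [← hc]
    symm
    refine card_bij (fun x _ => insert x S) ?_ ?_ ?_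
    · intro x hx
      exact mem_filter.2 ⟨mem_filter.2 ⟨mem_univ _, ((hT x).1 hx).2⟩, subset_insert _ _⟩
    · intro x hx y hy h
      exact (insert_inj ((hT x).1 hx).1).1 h
    · intro S' hS'
      rw [bipartiteAbove, mem_filter, mem_filter] at hS'
      obtain ⟨⟨-, hS'⟩, hsub⟩ := hS'
      obtain ⟨x, hx⟩ := card_eq_one.1 (show (S' \ S).card = 1 by
        rw [card_sdiff_of_subset hsub, hS'.1, hS.2.1]; omega)
      have hx' : x ∈ S' \ S := by rw [hx]; simp
      have hins : insert x S = S' := eq_of_subset_of_card_le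
        (insert_subset (mem_sdiff.1 hx').1 hsub) (by rw [card_insert_of_notMem (mem_sdiff.1 hx').2, hS'.1, hS.2.1])
      exact ⟨x, (hT x).2 ⟨(mem_sdiff.1 hx').2, hins ▸ hS'⟩, hins⟩
  · intro S' hS'
    rw [mem_filter] at hS'
    have : bipartiteBelow (fun (S S' : Finset α) => S ⊆ S') (univ.filter (IsArc L k)) S' =
        S'.powersetCard k := by
      ext S
      simp only [bipartiteBelow, mem_filter, mem_univ, true_and, mem_powersetCard]
      exact ⟨fun ⟨h, hs⟩ => ⟨hs, h.1⟩, fun ⟨hs, hc⟩ => ⟨⟨hc, fun l hl =>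
        (card_le_card (inter_subset_inter_left hs)).trans (hS'.2.2 l hl)⟩, hs⟩⟩
    rw [this, card_powersetCard, hS'.2.1, Nat.choose_succ_self_right]

include hα hL in
theorem arc_counts : {S | IsArc L 4 S}.ncard = 2520 ∧ {S | IsArc L 6 S}.ncard = 168 := by
  classical
  have e : ∀ n, {S : Finset α | IsArc L n S}.ncard = (univ.filter (IsArc L n)).card := fun n => by
    rw [← Set.ncard_coe_finset]; simp
  have h1 : {S | IsArc L 1 S}.ncard = 21 := by
    rw [e, ← hα, ← card_univ, ← Nat.choose_one_right (univ : Finset α).card, ← card_powersetCard]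
    congr 1
    ext S
    simp only [mem_filter, mem_univ, true_and, mem_powersetCard, subset_univ]
    exact ⟨fun h => h.1, fun h => ⟨h, fun l _ => (card_le_card inter_subset_right).trans (by omega)⟩⟩
  have h2 := arcs_step hα hL (Or.inl rfl) h1
  norm_num at h2
  have h3 := arcs_step hα hL (Or.inr (Or.inl rfl)) rfl
  norm_num at h3
  have h4 := arcs_step hα hL (Or.inr (Or.inr rfl)) rfl
  norm_num at h4
  have hq : {S | IsArc L 4 S}.ncard = 2520 := by omega
  refine ⟨hq, ?_⟩
  rw [e] at hq ⊢
  have := card_mul_eq_card_mul (s := univ.filter (IsArc L 4)) (t := univ.filter (IsArc L 6))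
    (fun (S H : Finset α) => S ⊆ H) (m := 1) (n := 15) ?_ ?_
  · omega
  · intro S hS
    rw [mem_filter] at hS
    obtain ⟨H, ⟨hH, hSH⟩, huniq⟩ := existsUnique_hyperoval hα hL hS.2
    rw [card_eq_one]
    refine ⟨H, ?_⟩
    ext H'
    simp only [bipartiteAbove, mem_filter, mem_univ, true_and, mem_singleton]
    exact ⟨fun h => huniq H' h, fun h => h ▸ ⟨hH, hSH⟩⟩
  · intro H hH
    rw [mem_filter] at hH
    have hb : bipartiteBelow (fun (S H : Finset α) => S ⊆ H) (univ.filter (IsArc L 4)) H =
        H.powersetCard 4 := by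
      ext S
      simp only [bipartiteBelow, mem_filter, mem_univ, true_and, mem_powersetCard]
      exact ⟨fun ⟨h, hs⟩ => ⟨hs, h.1⟩, fun ⟨hs, hc⟩ => ⟨⟨hc, fun l hl =>
        (card_le_card (inter_subset_inter_left hs)).trans (hH.2.2 l hl)⟩, hs⟩⟩
    rw [hb, card_powersetCard, hH.2.1]
    rfl

end Cfsg.Lib.Steiner.PlaneFour
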